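import Cfsg.Agent.Lib.Helper57.OE.Defs
import Cfsg.Agent.Lib.Helper91.Sp.H1
import Cfsg.Agent.Lib.Helper13.OrthHalves
import Cfsg.Agent.Lib.Helper94.QuadWrap
import Cfsg.Agent.Lib.Helper94.Transfer

set_option autoImplicit false
set_option linter.unusedSectionVars false

/-! # Piece H2 of the even orthogonal Aschbacher campaign -/

namespace Cfsg.Agent.Lib.Helper12.OE

open Cfsg Cfsg.Geo Matrix Cfsg.Agent.Lib.Helper13.Asch Cfsg.Agent.Lib.Helper90.Sp
  Cfsg.Agent.Lib.Helper57.OE Cfsg.Agent.Lib.Helper91.Asch Cfsg.Agent.Lib.Helper91.Sp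
open scoped Kronecker MatrixGroups

variable {ι : Type} [Fintype ι] [DecidableEq ι] {F : Type*} [Field F] {Q : (ι → F) → F}

lemma fixesForm_polarH2 {S : Set (Matrix ι ι F)} (h : FixesQuadForm S Q) :
    FixesForm S (QuadraticMap.polar Q) := by
  intro s hs u v
  simp only [QuadraticMap.polar]
  rw [← Matrix.mulVec_add, h s hs, h s hs, h s hs]

/-- a subgroup with more than `l.length` elements has an element outside the list `l` -/
lemma exists_not_mem_list {G : Type*} [Group G] [DecidableEq G] (N : Subgroup G) (l : List G)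
    (h : l.length < Nat.card N) : ∃ w ∈ N, w ∉ l := by
  by_contra hcon
  push Not at hcon
  have h1 : (N : Set G) ⊆ (l.toFinset : Set G) := by
    intro w hw
    simpa using hcon w hw
  have h2 := Set.ncard_le_ncard h1 (Finset.finite_toSet _)
  rw [Set.ncard_coe_finset] at h2
  have h3 : Nat.card N = (N : Set G).ncard := rfl
  have h4 := List.toFinset_card_le l
  omega

/-- the group theoretic part: a non-scalar involution -/
lemma exists_involution {G : Type*} [Group G] (N : Subgroup G) (z : G) (hzc : ∀ g : G, z * g = g * z)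
    (hzz : z * z = 1)
    (hdich : ∀ a ∈ N, ∀ b ∈ N, a * b = b * a ∨ a * b = z * (b * a))
    (hsq : ∀ a ∈ N, a * a = 1 ∨ a * a = z)
    (hcen : ∀ a ∈ N, (∀ b ∈ N, a * b = b * a) → a = 1 ∨ a = z)
    (hcard : 8 < Nat.card N) :
    ∃ x ∈ N, x * x = 1 ∧ x ≠ 1 ∧ x ≠ z := by
  classical
  obtain ⟨x0, hx0, hx0l⟩ := exists_not_mem_list N [1, z] (by simp; omega)
  have hx01 : x0 ≠ 1 := fun h => hx0l (by simp [h])
  have hx0z : x0 ≠ z := fun h => hx0l (by simp [h])
  rcases hsq x0 hx0 with h1 | hx0sq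
  · exact ⟨x0, hx0, h1, hx01, hx0z⟩
  obtain ⟨y0, hy0, hy0c⟩ : ∃ y0 ∈ N, x0 * y0 ≠ y0 * x0 := by
    by_contra hcon
    push Not at hcon
    rcases hcen x0 hx0 hcon with h | h
    · exact hx01 h
    · exact hx0z h
  have hy0a : x0 * y0 = z * (y0 * x0) := (hdich x0 hx0 y0 hy0).resolve_left hy0c
  obtain ⟨w, hw, hwl⟩ := exists_not_mem_list N
    [1, z, x0, z * x0, y0, z * y0, x0 * y0, z * x0 * y0] (by simp; omega)
  simp only [List.mem_cons, List.not_mem_nil, or_false, not_or] at hwl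
  obtain ⟨w1, w2, w3, w4, w5, w6, w7, w8⟩ := hwl
  -- an element `y` commuting with `x0` outside `{1, z, x0, z x0}`
  obtain ⟨y, hy, hyc, y1, y2, y3, y4⟩ : ∃ y ∈ N, x0 * y = y * x0 ∧ y ≠ 1 ∧ y ≠ z ∧ y ≠ x0 ∧
      y ≠ z * x0 := by
    rcases hdich x0 hx0 w hw with h | h
    · exact ⟨w, hw, h, w1, w2, w3, w4⟩
    · refine ⟨w * y0⁻¹, N.mul_mem hw (N.inv_mem hy0), ?_, ?_, ?_, ?_, ?_⟩
      · have e1 : x0 * y0⁻¹ = z * (y0⁻¹ * x0) := by
          have : y0⁻¹ * (x0 * y0) * y0⁻¹ = y0⁻¹ * (z * (y0 * x0)) * y0⁻¹ := by rw [hy0a]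
          have e2 : y0⁻¹ * (x0 * y0) * y0⁻¹ = y0⁻¹ * x0 := by group
          have e3 : y0⁻¹ * (z * (y0 * x0)) * y0⁻¹ = z * (x0 * y0⁻¹) := by
            rw [← mul_assoc y0⁻¹ z, ← hzc y0⁻¹]; group
          rw [e2, e3] at this
          rw [this, ← mul_assoc, hzz, one_mul]
        calc x0 * (w * y0⁻¹) = (x0 * w) * y0⁻¹ := by group
          _ = z * (w * x0) * y0⁻¹ := by rw [h]
          _ = z * (w * (x0 * y0⁻¹)) := by group
          _ = z * (w * (z * (y0⁻¹ * x0))) := by rw [e1]
          _ = z * ((w * z) * (y0⁻¹ * x0)) := by group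
          _ = z * ((z * w) * (y0⁻¹ * x0)) := by rw [hzc w]
          _ = (z * z) * (w * y0⁻¹ * x0) := by group
          _ = w * y0⁻¹ * x0 := by rw [hzz, one_mul]
      · intro h'; apply w5; rw [mul_inv_eq_one] at h'; exact h'
      · intro h'; apply w6; rw [mul_inv_eq_iff_eq_mul] at h'; exact h'
      · intro h'; apply w7; rw [mul_inv_eq_iff_eq_mul] at h'; exact h'
      · intro h'; apply w8; rw [mul_inv_eq_iff_eq_mul] at h'; exact h'
  rcases hsq y hy with h1 | hysq
  · exact ⟨y, hy, h1, y1, y2⟩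
  refine ⟨x0 * y, N.mul_mem hx0 hy, ?_, ?_, ?_⟩
  · calc x0 * y * (x0 * y) = x0 * (y * x0) * y := by group
      _ = x0 * (x0 * y) * y := by rw [hyc]
      _ = (x0 * x0) * (y * y) := by group
      _ = 1 := by rw [hx0sq, hysq, hzz]
  · intro h
    apply y4
    have : x0 * (z * x0) = 1 := by
      rw [← mul_assoc, ← hzc x0, mul_assoc, hx0sq, hzz]
    exact mul_left_cancel (h.trans this.symm)
  · intro h
    apply y3
    exact mul_left_cancel (h.trans hx0sq.symm)

/-- H2 -/
theorem plus_of_extraspecial [Fintype F] (hQ : IsNondegenerateQuadraticForm Q)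
    (hι : Fintype.card ι = 8) (h2 : (2 : F) ≠ 0) {N : Subgroup (GL ι F)}
    (hN : FixesQuadForm (matrixSet N) Q) (henv : env N = ⊤)
    (hcomm : ∀ x ∈ N, ∀ y ∈ N, x * y * x⁻¹ * y⁻¹ ∈ scalars ι F)
    (hcard : Nat.card N = 2 ^ 7) : IsPlusTypeOn Q ⊤ := by
  classical
  have hne : Nonempty ι := Fintype.card_pos_iff.1 (by omega)
  have hNf : FixesForm (matrixSet N) (QuadraticMap.polar Q) := fixesForm_polarH2 hN
  obtain ⟨-, hzN, -, hinf, -⟩ := es_core (by omega) hQ.polar_bilinear hQ.nondegenerate hNf henv hcomm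
  set z : GL ι F := scHom ι F (-1) with hz
  have hzc : ∀ g : GL ι F, z * g = g * z := fun g => scHom_comm (-1) g
  have hzz : z * z = 1 := by rw [hz, ← map_mul]; simp
  have hsc : ∀ s ∈ N, s ∈ scalars ι F → s = 1 ∨ s = z := by
    intro s hs hs'
    have h1 : s ∈ N ⊓ scalars ι F := ⟨hs, hs'⟩
    rw [hinf] at h1
    obtain ⟨k, rfl⟩ := Subgroup.mem_zpowers_iff.1 h1
    rcases Int.even_or_odd k with ⟨j, rfl⟩ | ⟨j, rfl⟩
    · left
      rw [← two_mul, _root_.zpow_mul, zpow_two, hzz, _root_.one_zpow]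
    · right
      rw [_root_.zpow_add, _root_.zpow_mul, zpow_two, hzz, _root_.one_zpow, one_mul, zpow_one]
  have hdich : ∀ a ∈ N, ∀ b ∈ N, a * b = b * a ∨ a * b = z * (b * a) := by
    intro a ha b hb
    have h1 : a * b * a⁻¹ * b⁻¹ ∈ N :=
      N.mul_mem (N.mul_mem (N.mul_mem ha hb) (N.inv_mem ha)) (N.inv_mem hb)
    have e : a * b = (a * b * a⁻¹ * b⁻¹) * (b * a) := by group
    rcases hsc _ h1 (hcomm a ha b hb) with h | h
    · left; rw [e, h, one_mul]
    · right; rw [e, h]
  have hcen : ∀ a ∈ N, (∀ b ∈ N, a * b = b * a) → a = 1 ∨ a = z := by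
    intro a ha hab
    exact hsc a ha (Cfsg.Agent.Lib.Helper91.Asch.mem_scalars_of_commute henv a hab)
  have hsq : ∀ a ∈ N, a * a = 1 ∨ a * a = z := by
    intro a ha
    apply hcen _ (N.mul_mem ha ha)
    intro b hb
    rcases hdich a ha b hb with h | h
    · calc a * a * b = a * (a * b) := by group
        _ = a * (b * a) := by rw [h]
        _ = (a * b) * a := by group
        _ = b * a * a := by rw [h]
        _ = b * (a * a) := by group
    · calc a * a * b = a * (a * b) := by group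
        _ = a * (z * (b * a)) := by rw [h]
        _ = (a * z) * (b * a) := by group
        _ = (z * a) * (b * a) := by rw [hzc a]
        _ = z * (a * b) * a := by group
        _ = z * (z * (b * a)) * a := by rw [h]
        _ = (z * z) * (b * (a * a)) := by group
        _ = b * (a * a) := by rw [hzz, one_mul]
  obtain ⟨x, hx, hxx, hx1, hxz⟩ := exists_involution N z hzc hzz hdich hsq hcen (by rw [hcard]; norm_num)
  obtain ⟨y, hy, hxy⟩ : ∃ y ∈ N, x * y ≠ y * x := by
    by_contra hcon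
    push Not at hcon
    rcases hcen x hx hcon with h | h
    · exact hx1 h
    · exact hxz h
  have hxy' : x * y = z * (y * x) := (hdich x hx y hy).resolve_left hxy
  -- matrices
  set X : Matrix ι ι F := (x : Matrix ι ι F) with hX
  set Y : Matrix ι ι F := (y : Matrix ι ι F) with hY
  have hXX : X * X = 1 := by rw [hX, ← Units.val_mul, hxx, Units.val_one]
  have hXY : X * Y = -(Y * X) := by
    have := congrArg (fun g : GL ι F => (g : Matrix ι ι F)) hxy'
    simp only [Units.val_mul, hz, scHom_coe] at this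
    rw [hX, hY, this]
    simp
  have hfx : ∀ u v, QuadraticMap.polar Q (X *ᵥ u) (X *ᵥ v) = QuadraticMap.polar Q u v :=
    hNf _ ⟨x, hx, rfl⟩
  set W : Submodule F (ι → F) := LinearMap.ker (Matrix.toLin' (X - 1)) with hW
  set W' : Submodule F (ι → F) := LinearMap.ker (Matrix.toLin' (X + 1)) with hW'
  have memW : ∀ v, v ∈ W ↔ X *ᵥ v = v := by
    intro v
    rw [hW, LinearMap.mem_ker, Matrix.toLin'_apply, Matrix.sub_mulVec, Matrix.one_mulVec,
      sub_eq_zero]
  have memW' : ∀ v, v ∈ W' ↔ X *ᵥ v = -v := by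
    intro v
    rw [hW', LinearMap.mem_ker, Matrix.toLin'_apply, Matrix.add_mulVec, Matrix.one_mulVec,
      add_eq_zero_iff_eq_neg]
  have hcompl : IsCompl W W' := by
    constructor
    · rw [Submodule.disjoint_def]
      intro v hv hv'
      have h3 : v = -v := ((memW v).1 hv).symm.trans ((memW' v).1 hv')
      have h4 : (2 : F) • v = 0 := by
        rw [two_smul]
        nth_rewrite 1 [h3]
        exact neg_add_cancel v
      rcases smul_eq_zero.1 h4 with h | h
      · exact absurd h h2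
      · exact h
    · rw [codisjoint_iff, eq_top_iff]
      intro v _
      have hv : v = (2 : F)⁻¹ • (v + X *ᵥ v) + (2 : F)⁻¹ • (v - X *ᵥ v) := by
        rw [← smul_add, show v + X *ᵥ v + (v - X *ᵥ v) = (2 : F) • v by rw [two_smul]; abel,
          smul_smul, inv_mul_cancel₀ h2, one_smul]
      rw [hv]
      refine Submodule.add_mem_sup (W.smul_mem _ ?_) (W'.smul_mem _ ?_)
      · rw [memW, Matrix.mulVec_add, Matrix.mulVec_mulVec, hXX, Matrix.one_mulVec, add_comm]
      · rw [memW', Matrix.mulVec_sub, Matrix.mulVec_mulVec, hXX, Matrix.one_mulVec]; abel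
  have hpn : ∀ u v, QuadraticMap.polar Q u (-v) = -QuadraticMap.polar Q u v := by
    intro u v
    have := hQ.polar_bilinear.smul_right (-1) u v
    simpa using this
  set Q' := Cfsg.Agent.Lib.Helper94.quadOf Q hQ with hQ'
  have hOD : Cfsg.Agent.Lib.Helper13.O.OD Q' W W' := by
    refine ⟨hcompl, ?_⟩
    intro u hu v hv
    show QuadraticMap.polar Q u v = 0
    have h3 := hfx u v
    rw [(memW u).1 hu, (memW' v).1 hv, hpn] at h3
    have h4 : (2 : F) * QuadraticMap.polar Q u v = 0 := by linear_combination -h3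
    rcases mul_eq_zero.1 h4 with h | h
    · exact absurd h h2
    · exact h
  set φ := Cfsg.Agent.Lib.Helper94.glEquiv ι F y with hφ
  have hφa : ∀ v, φ v = Y *ᵥ v := fun v => Cfsg.Agent.Lib.Helper94.glEquiv_apply y v
  have hφO : φ ∈ Cfsg.Agent.Lib.Helper44.OQ Q' := by
    intro v
    show Q (φ v) = Q v
    rw [hφa]
    exact hN _ ⟨y, hy, rfl⟩ v
  have hs : ∀ w ∈ W, φ w ∈ W' := by
    intro w hw
    rw [hφa, memW', Matrix.mulVec_mulVec, hXY, Matrix.neg_mulVec, ← Matrix.mulVec_mulVec,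
      (memW w).1 hw]
  have hs' : ∀ w ∈ W', φ w ∈ W := by
    intro w hw
    rw [hφa, memW, Matrix.mulVec_mulVec, hXY, Matrix.neg_mulVec, ← Matrix.mulVec_mulVec,
      (memW' w).1 hw, Matrix.mulVec_neg, neg_neg]
  have hle1 : Module.finrank F W ≤ Module.finrank F W' := by
    rw [← LinearEquiv.finrank_map_eq φ W]
    apply Submodule.finrank_mono
    rintro _ ⟨w, hw, rfl⟩
    exact hs w hw
  have hle2 : Module.finrank F W' ≤ Module.finrank F W := by
    rw [← LinearEquiv.finrank_map_eq φ W']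
    apply Submodule.finrank_mono
    rintro _ ⟨w, hw, rfl⟩
    exact hs' w hw
  have hsum := Submodule.finrank_add_eq_of_isCompl hcompl
  rw [Module.finrank_fintype_fun_eq_card, hι] at hsum
  have hW4 : Module.finrank F W = 4 := by omega
  obtain ⟨T, hT, hTr⟩ := Cfsg.Agent.Lib.Helper13.O.exists_sing_of_halves hOD
    (Cfsg.Agent.Lib.Helper94.pB_quadOf_nondegenerate Q hQ) (by rw [hW4]; decide) hφO hs
  refine ⟨T, le_top, hT, ?_⟩
  rw [hTr, hW4, finrank_top, Module.finrank_fintype_fun_eq_card, hι]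

end Cfsg.Agent.Lib.Helper12.OE
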