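import Cfsg.Agent.Lib.Helper57.OE.Defs
import Cfsg.Agent.Lib.Helper99.Sp.T2

set_option autoImplicit false
set_option linter.unusedSectionVars false

/-! # Piece T8 of the even orthogonal Aschbacher campaign -/

namespace Cfsg.Agent.Lib.Helper12.OE

open Cfsg Cfsg.Geo Matrix Cfsg.Agent.Lib.Helper13.Asch Cfsg.Agent.Lib.Helper90.Sp
  Cfsg.Agent.Lib.Helper57.OE Cfsg.Agent.Lib.Helper99.Sp
open scoped Kronecker MatrixGroups

variable {ι : Type} [Fintype ι] [DecidableEq ι] {F : Type*} [Field F] {Q : (ι → F) → F}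

/-- T8 -/
theorem o_class4 {H : Subgroup (GL ι F)} {a b : ℕ} (ha : 3 ≤ a) (hb : 3 ≤ b)
    (e : ι ≃ Fin a × Fin b) (P : GL ι F) {G₁ : Matrix (Fin a) (Fin a) F}
    {G₂ : Matrix (Fin b) (Fin b) F} (hG : TensGram (QuadraticMap.polar Q) e P G₁ G₂)
    (h1 : IsUnit G₁.det) (h2 : IsUnit G₂.det) (hs1 : G₁ᵀ = G₁) (hs2 : G₂ᵀ = G₂)
    (hHt : H ≤ tensorProductSubgroup a b e P) : RTens Q H := by
  refine ⟨a, b, e, P, formOfGram id G₁, formOfGram id G₂, ha, hb,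
      formOfGram_symmetric h1 hs1, formOfGram_symmetric h2 hs2, ⟨1, one_ne_zero, ?_⟩, hHt⟩
  intro x y
  rw [gramMatrix_formOfGram, gramMatrix_formOfGram, one_mul]
  exact hG x y

end Cfsg.Agent.Lib.Helper12.OE
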