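import Cfsg.Agent.Lib.Helper90.OE.Defs10
import Cfsg.Agent.Lib.Helper37.OE.P6a
import Cfsg.Agent.Lib.Helper13.PairWrap
import Cfsg.Agent.Lib.Helper13.OrthPar2
import Cfsg.Agent.Lib.Helper13.OrthWrap
import Cfsg.Agent.Lib.Helper86.OE.N0

set_option autoImplicit false
set_option linter.unusedSectionVars false

/-! # Pieces ZR1, ZR2, ZR3 (helper90 farm, rows S5847 / S5850) -/

namespace Cfsg.Agent.Lib.Helper12.OE

open Cfsg Cfsg.Geo Matrix Cfsg.Agent.Lib.Helper13.Asch Cfsg.Agent.Lib.Helper90.Sp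
open Cfsg.Agent.Lib.Helper57.OE Cfsg.Agent.Lib.Helper37.OE
open Cfsg.Agent.Lib.Helper13.O Cfsg.Agent.Lib.Helper94
open scoped Kronecker MatrixGroups

variable {ι : Type} [Fintype ι] [DecidableEq ι] {F : Type*} [Field F] {Q : (ι → F) → F}

/-- a pair of complementary subspaces of the same dimension is a decomposition -/
theorem isMDecomposition_pair {U U' : Submodule F (ι → F)} (hc : IsCompl U U') {k : ℕ}
    (hk : 0 < k) (h1 : Module.finrank F U = k) (h2 : Module.finrank F U' = k) :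
    IsMDecomposition k ![U, U'] := by
  refine ⟨le_refl _, hk, ?_, ?_, ?_⟩
  · intro i
    fin_cases i
    · exact h1
    · exact h2
  · rw [iSupIndep_pair (i := (0 : Fin 2)) (j := 1) (by decide) (by intro k; fin_cases k <;> simp)]
    exact hc.disjoint
  · rw [eq_top_iff, ← hc.sup_eq_top]
    exact sup_le (le_iSup ![U, U'] 0) (le_iSup ![U, U'] 1)

/-- elements stabilising both members stabilise the pair -/
theorem le_decStab_pair {H : Subgroup (GL ι F)} {U U' : Submodule F (ι → F)}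
    (hf : Module.finrank F U = Module.finrank F U')
    (h1 : H ≤ subspaceStabilizer U) (h2 : H ≤ subspaceStabilizer U') :
    H ≤ decompositionStabilizer ![U, U'] := by
  intro g hg
  rw [Cfsg.Agent.Lib.Helper13.mem_decStab_two_iff _ hf]
  left
  exact ⟨(mem_subspaceStabilizer_iff g U).1 (h1 hg), (mem_subspaceStabilizer_iff g U').1 (h2 hg)⟩

/-- ZR1 -/
theorem pair_of_nondeg_half (hQ : IsNondegenerateQuadraticForm Q) {H : Subgroup (GL ι F)}
    (hH : FixesQuadForm (matrixSet H) Q) (W : Submodule F (ι → F)) {k : ℕ} (hk : 0 < k)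
    (hdim : Module.finrank F W = k) (hcard : 2 * k = Fintype.card ι)
    (hnd : IsNondegenerateOn (QuadraticMap.polar Q) W) (hHW : H ≤ subspaceStabilizer W) :
    ∃ D : Fin 2 → Submodule F (ι → F), IsNondegenerateMDecomposition (QuadraticMap.polar Q) k D ∧
      H ≤ decompositionStabilizer D := by
  have hc := isCompl_orth hQ W hnd
  have hfr : Module.finrank F W + Module.finrank F ((polB hQ).orthogonal W) = Fintype.card ι := by
    rw [Submodule.finrank_add_eq_of_isCompl hc, Module.finrank_fintype_fun_eq_card]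
  have hdim' : Module.finrank F ((polB hQ).orthogonal W) = k := by omega
  have hnd' : IsNondegenerateOn (QuadraticMap.polar Q) ((polB hQ).orthogonal W) := by
    have key : ∀ w ∈ (polB hQ).orthogonal W, w ≠ 0 →
        ∃ x ∈ (polB hQ).orthogonal W, QuadraticMap.polar Q x w ≠ 0 := by
      intro w hw hw0
      obtain ⟨⟨x, hx⟩, -⟩ := hQ.nondegenerate w hw0
      have hxt : x ∈ W ⊔ (polB hQ).orthogonal W := by
        rw [hc.sup_eq_top]; trivial
      obtain ⟨a, ha, b, hb, rfl⟩ := Submodule.mem_sup.1 hxt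
      refine ⟨b, hb, ?_⟩
      rw [hQ.polar_bilinear.add_left] at hx
      have h0 : QuadraticMap.polar Q a w = 0 := hw a ha
      rwa [h0, zero_add] at hx
    intro w hw hw0
    obtain ⟨x, hx, hxw⟩ := key w hw hw0
    exact ⟨⟨x, hx, hxw⟩, ⟨x, hx, by rwa [QuadraticMap.polar_comm]⟩⟩
  have hst' : H ≤ subspaceStabilizer ((polB hQ).orthogonal W) := by
    apply Cfsg.Agent.Lib.Helper58.Asch.le_subspaceStabilizer
    rintro s ⟨g, hg, rfl⟩ v hv
    obtain ⟨u, hu, rfl⟩ := hv
    intro w hw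
    show QuadraticMap.polar Q w _ = 0
    rw [Matrix.toLin'_apply]
    have hginv : g⁻¹ ∈ H := inv_mem hg
    have hw' : ((g⁻¹ : GL ι F) : Matrix ι ι F) *ᵥ w ∈ W := (hHW hginv w).1 hw
    have hww : w = (g : Matrix ι ι F) *ᵥ (((g⁻¹ : GL ι F) : Matrix ι ι F) *ᵥ w) := by
      rw [Matrix.mulVec_mulVec, ← Units.val_mul, mul_inv_cancel, Units.val_one, Matrix.one_mulVec]
    have hpol : ∀ a b : ι → F, QuadraticMap.polar Q ((g : Matrix ι ι F) *ᵥ a)
        ((g : Matrix ι ι F) *ᵥ b) = QuadraticMap.polar Q a b := by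
      intro a b
      have hf := hH (g : Matrix ι ι F) ⟨g, hg, rfl⟩
      unfold QuadraticMap.polar
      rw [← Matrix.mulVec_add, hf, hf, hf]
    rw [hww, hpol]
    exact hu _ hw'
  refine ⟨![W, (polB hQ).orthogonal W], ⟨isMDecomposition_pair hc hk hdim hdim', ?_, ?_⟩,
    le_decStab_pair (hdim.trans hdim'.symm) hHW hst'⟩
  · intro i
    fin_cases i
    · exact hnd
    · exact hnd'
  · intro i j hij
    fin_cases i <;> fin_cases j
    · exact absurd rfl hij
    · intro u hu v hv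
      exact hv u hu
    · intro u hu v hv
      rw [QuadraticMap.polar_comm]
      exact hu v hv
    · exact absurd rfl hij

/-- ZR2 -/
theorem orthDecomp_of_isometric {k : ℕ} (D : Fin 2 → Submodule F (ι → F))
    (hD : IsNondegenerateMDecomposition (QuadraticMap.polar Q) k D)
    (h : AreIsometricFor Q (D 0) (D 1)) : IsOrthogonalMDecomposition Q k D := by
  refine ⟨hD, ?_⟩
  obtain ⟨e, he⟩ := h
  intro i j
  fin_cases i <;> fin_cases j
  · exact ⟨LinearEquiv.refl _ _, fun w => rfl⟩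
  · exact ⟨e, he⟩
  · refine ⟨e.symm, fun w => ?_⟩
    have := he (e.symm w)
    rw [LinearEquiv.apply_symm_apply] at this
    exact this.symm
  · exact ⟨LinearEquiv.refl _ _, fun w => rfl⟩

/-- ZR3 -/
theorem stab_of_pair_odd [Fintype F] (hQ : IsNondegenerateQuadraticForm Q) {H : Subgroup (GL ι F)}
    (hH : H ≤ omegaGL Q) {k : ℕ} (hk : Odd k) (D : Fin 2 → Submodule F (ι → F))
    (hD : IsMDecomposition k D) (hts : ∀ i, IsTotallySingularQuad Q (D i))
    (hle : H ≤ decompositionStabilizer D) : H ≤ subspaceStabilizer (D 0) := by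
  intro g hg
  rw [mem_subspaceStabilizer_iff]
  set φ : (ι → F) ≃ₗ[F] (ι → F) := glEquiv ι F g with hφdef
  have hφ : φ ∈ Om (quadOf Q hQ) := by
    have h1 : g ∈ omegaGL ⇑(quadOf Q hQ) := hH hg
    exact (mem_omegaGL_iff (quadOf Q hQ) g).1 h1
  have hfr : Module.finrank F (ι → F) = Fintype.card ι := Module.finrank_fintype_fun_eq_card F
  have hcard := Cfsg.Agent.Lib.Helper55.Asch.card_of_decomp D hD
  have hc := Cfsg.Agent.Lib.Helper13.isCompl_of_isMDecomposition hD
  have hps := (Cfsg.Agent.Lib.Helper13.mem_decStab_two_iff D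
    ((hD.finrank_eq 0).trans (hD.finrank_eq 1).symm) g).1 (hle hg)
  rcases hps with ⟨h, -⟩ | ⟨h, -⟩
  · exact h
  · exfalso
    have hpar := Om_parity (Cfsg.Agent.Lib.Helper86.OE.quadOf_nondeg hQ)
      (by
        rw [hfr, ← hcard]
        obtain ⟨r, hr⟩ := hk
        omega)
      (U := D 0) (fun u hu => hts 0 u hu) (by rw [hfr, hD.finrank_eq 0, hcard]) hφ
    have hle' : D 0 ⊓ (D 0).map (φ : (ι → F) →ₗ[F] (ι → F)) ≤ ⊥ := by
      rw [← hc.inf_eq_bot]
      refine inf_le_inf_left _ ?_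
      rintro _ ⟨w, hw, rfl⟩
      exact h w hw
    have h0 : Module.finrank F ↥(D 0 ⊓ (D 0).map (φ : (ι → F) →ₗ[F] (ι → F))) = 0 := by
      rw [le_bot_iff.1 hle', finrank_bot]
    rw [h0, add_zero, hD.finrank_eq 0] at hpar
    exact (Nat.not_even_iff_odd.2 hk) hpar

end Cfsg.Agent.Lib.Helper12.OE
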