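import Cfsg.Agent.Lib.Helper15.OE.CB
import Cfsg.Agent.Lib.Helper57.OE.Defs2
import Cfsg.Agent.Lib.Helper12.OE.ZR

set_option autoImplicit false
set_option linter.unusedSectionVars false

/-! # Piece YCB (helper99 farm, S5871): an idempotent whose adjoint is its complement gives a pair
of complementary totally singular subspaces -/

namespace Cfsg.Agent.Lib.Helper12.OE

open Cfsg Cfsg.Geo Matrix Cfsg.Agent.Lib.Helper13.Asch Cfsg.Agent.Lib.Helper90.Sp
  Cfsg.Agent.Lib.Helper57.OE Cfsg.Agent.Lib.Helper15.OE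
open scoped Kronecker MatrixGroups

variable {ι : Type} [Fintype ι] [DecidableEq ι] {F : Type*} [Field F] {Q : (ι → F) → F}

/-- the proof of helper15's `plus_of_isotropic_idempotent`, with the subspace made explicit -/
theorem idem_core [Fintype F] (hQ : IsNondegenerateQuadraticForm Q)
    (hι : 2 < Fintype.card ι) {H : Subgroup (GL ι F)} (hH : FixesQuadForm (matrixSet H) Q)
    (hirr : ActsIrreducibly (matrixSet H)) (e : Matrix ι ι F) (hidem : e * e = e)
    (hadj : ∀ u v, QuadraticMap.polar Q (e *ᵥ u) v = QuadraticMap.polar Q u ((1 - e) *ᵥ v))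
    (hperm : ∀ h ∈ H, (h : Matrix ι ι F) * e * ((h⁻¹ : GL ι F) : Matrix ι ι F) = e ∨
      (h : Matrix ι ι F) * e * ((h⁻¹ : GL ι F) : Matrix ι ι F) = 1 - e) :
    IsTotallySingularQuad Q (LinearMap.ker (Matrix.toLin' (1 - e))) ∧
      2 * Module.finrank F (LinearMap.ker (Matrix.toLin' (1 - e))) = Fintype.card ι ∧
      IsCompl (LinearMap.ker (Matrix.toLin' (1 - e))) (LinearMap.ker (Matrix.toLin' e)) := by
  classical
  set B := Cfsg.Agent.Lib.Helper94.pB (Cfsg.Agent.Lib.Helper94.quadOf Q hQ) with hB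
  have hBnd : B.Nondegenerate := Cfsg.Agent.Lib.Helper94.pB_quadOf_nondegenerate Q hQ
  have hBap : ∀ x y, B x y = QuadraticMap.polar Q x y := fun x y => rfl
  have hBrefl : B.IsRefl := by
    intro x y h
    rw [hBap] at h ⊢
    rw [QuadraticMap.polar_comm]; exact h
  have hpz : ∀ v, QuadraticMap.polar Q 0 v = 0 := by
    intro v
    have := hQ.polar_bilinear.smul_left 0 0 v
    simpa using this
  have hpz' : ∀ v, QuadraticMap.polar Q v 0 = 0 := by
    intro v
    have := hQ.polar_bilinear.smul_right 0 v 0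
    simpa using this
  -- the two eigenspaces
  set U : Submodule F (ι → F) := LinearMap.ker (Matrix.toLin' (1 - e)) with hUdef
  set U' : Submodule F (ι → F) := LinearMap.ker (Matrix.toLin' e) with hU'def
  have memU : ∀ u, u ∈ U ↔ e *ᵥ u = u := by
    intro u
    rw [hUdef, LinearMap.mem_ker, Matrix.toLin'_apply, Matrix.sub_mulVec, Matrix.one_mulVec,
      sub_eq_zero, eq_comm]
  have memU' : ∀ u, u ∈ U' ↔ e *ᵥ u = 0 := by
    intro u
    rw [hU'def, LinearMap.mem_ker, Matrix.toLin'_apply]
  have isoU : ∀ u ∈ U, ∀ v ∈ U, QuadraticMap.polar Q u v = 0 := by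
    intro u hu v hv
    rw [← (memU u).1 hu, hadj, Matrix.sub_mulVec, Matrix.one_mulVec, (memU v).1 hv, sub_self, hpz']
  have isoU' : ∀ u ∈ U', ∀ v ∈ U', QuadraticMap.polar Q u v = 0 := by
    intro u hu v hv
    have h1 : (1 - e) *ᵥ v = v := by
      rw [Matrix.sub_mulVec, Matrix.one_mulVec, (memU' v).1 hv, sub_zero]
    rw [← h1, ← hadj, (memU' u).1 hu, hpz]
  have hcompl : IsCompl U U' := by
    constructor
    · rw [Submodule.disjoint_def]
      intro x hx hx'
      rw [← (memU x).1 hx, (memU' x).1 hx']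
    · rw [codisjoint_iff, eq_top_iff]
      intro x _
      have hx : x = e *ᵥ x + (1 - e) *ᵥ x := by
        rw [Matrix.sub_mulVec, Matrix.one_mulVec]; abel
      rw [hx]
      refine Submodule.add_mem_sup ?_ ?_
      · rw [memU, Matrix.mulVec_mulVec, hidem]
      · rw [memU', Matrix.mulVec_mulVec, mul_sub, mul_one, hidem, sub_self, Matrix.zero_mulVec]
  have hsum := Submodule.finrank_add_eq_of_isCompl hcompl
  have hle1 : U ≤ B.orthogonal U := by
    intro u hu
    rw [LinearMap.BilinForm.mem_orthogonal_iff]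
    intro v hv
    exact isoU v hv u hu
  have hle2 : U' ≤ B.orthogonal U' := by
    intro u hu
    rw [LinearMap.BilinForm.mem_orthogonal_iff]
    intro v hv
    exact isoU' v hv u hu
  have hf1 := LinearMap.BilinForm.finrank_orthogonal hBnd U
  have hf2 := LinearMap.BilinForm.finrank_orthogonal hBnd U'
  have hl1 := Submodule.finrank_mono hle1
  have hl2 := Submodule.finrank_mono hle2
  have hn : Module.finrank F (ι → F) = Fintype.card ι := Module.finrank_fintype_fun_eq_card F
  have hhalf : 2 * Module.finrank F U = Module.finrank F (ι → F) := by omega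
  have hhalf' : 2 * Module.finrank F U' = Module.finrank F (ι → F) := by omega
  refine ⟨?_, by rw [← hn]; exact hhalf, hcompl⟩
  by_cases h2 : (2 : F) = 0
  · -- characteristic 2
    set U0 := singPart Q hQ U isoU with hU0
    set U0' := singPart Q hQ U' isoU' with hU0'
    have hinv : ∀ s ∈ matrixSet H, (U0 ⊔ U0').map (Matrix.toLin' s) ≤ U0 ⊔ U0' := by
      rintro s ⟨h, hh, rfl⟩
      have hcancel : ((h⁻¹ : GL ι F) : Matrix ι ι F) * (h : Matrix ι ι F) = 1 := by
        rw [← Units.val_mul, inv_mul_cancel, Units.val_one]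
      have hfix : ∀ v, Q ((h : Matrix ι ι F) *ᵥ v) = Q v := hH _ ⟨h, hh, rfl⟩
      have key : ∀ (M : Matrix ι ι F),
          (h : Matrix ι ι F) * e * ((h⁻¹ : GL ι F) : Matrix ι ι F) = M → ∀ v,
          M *ᵥ ((h : Matrix ι ι F) *ᵥ v) = (h : Matrix ι ι F) *ᵥ (e *ᵥ v) := by
        intro M hM v
        rw [← hM, Matrix.mulVec_mulVec, Matrix.mul_assoc, hcancel, Matrix.mul_one,
          Matrix.mulVec_mulVec]
      rw [Submodule.map_sup]
      rcases hperm h hh with hc | hc
      · refine sup_le_sup ?_ ?_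
        · rintro _ ⟨x, ⟨hx, hx0⟩, rfl⟩
          refine ⟨?_, ?_⟩
          · rw [memU, Matrix.toLin'_apply, key e hc, (memU x).1 hx]
          · rw [Matrix.toLin'_apply, hfix, hx0]
        · rintro _ ⟨x, ⟨hx, hx0⟩, rfl⟩
          refine ⟨?_, ?_⟩
          · rw [memU', Matrix.toLin'_apply, key e hc, (memU' x).1 hx, Matrix.mulVec_zero]
          · rw [Matrix.toLin'_apply, hfix, hx0]
      · rw [sup_comm]
        refine sup_le_sup ?_ ?_
        · rintro _ ⟨x, ⟨hx, hx0⟩, rfl⟩
          refine ⟨?_, ?_⟩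
          · have := key (1 - e) hc x
            rw [(memU' x).1 hx, Matrix.mulVec_zero, Matrix.sub_mulVec, Matrix.one_mulVec,
              sub_eq_zero] at this
            rw [memU, Matrix.toLin'_apply]
            exact this.symm
          · rw [Matrix.toLin'_apply, hfix, hx0]
        · rintro _ ⟨x, ⟨hx, hx0⟩, rfl⟩
          refine ⟨?_, ?_⟩
          · have := key (1 - e) hc x
            rw [(memU x).1 hx, Matrix.sub_mulVec, Matrix.one_mulVec, sub_eq_self] at this
            rw [memU', Matrix.toLin'_apply]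
            exact this
          · rw [Matrix.toLin'_apply, hfix, hx0]
    rcases hirr _ hinv with hbot | htop
    · exfalso
      rw [sup_eq_bot_iff] at hbot
      have h1 := finrank_le_one_of_singPart h2 hQ U isoU hbot.1
      omega
    · intro u hu
      have hmem : u ∈ U0 ⊔ U0' := by rw [htop]; trivial
      obtain ⟨a, ha, b, hb, hab⟩ := Submodule.mem_sup.1 hmem
      have h1 : e *ᵥ u = a := by
        rw [← hab, Matrix.mulVec_add, (memU a).1 ha.1, (memU' b).1 hb.1, add_zero]
      rw [(memU u).1 hu] at h1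
      rw [h1]; exact ha.2
  · intro u hu
    have h := isoU u hu u hu
    rw [QuadraticMap.polar, ← two_smul F u, hQ.smul] at h
    have h' : 2 * Q u = 0 := by linear_combination h
    exact (mul_eq_zero.1 h').resolve_left h2


/-- YCB -/
theorem rpair_of_isotropic_idempotent [Fintype F] (hQ : IsNondegenerateQuadraticForm Q)
    (hι : 2 < Fintype.card ι) {H : Subgroup (GL ι F)} (hH : FixesQuadForm (matrixSet H) Q)
    (hirr : ActsIrreducibly (matrixSet H)) (e : Matrix ι ι F) (hidem : e * e = e)
    (hadj : ∀ u v, QuadraticMap.polar Q (e *ᵥ u) v = QuadraticMap.polar Q u ((1 - e) *ᵥ v))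
    (hperm : ∀ h ∈ H, (h : Matrix ι ι F) * e * ((h⁻¹ : GL ι F) : Matrix ι ι F) = e ∨
      (h : Matrix ι ι F) * e * ((h⁻¹ : GL ι F) : Matrix ι ι F) = 1 - e) :
    RPair Q H := by
  obtain ⟨ts1, hf1, hc⟩ := idem_core hQ hι hH hirr e hidem hadj hperm
  obtain ⟨ts2, hf2, -⟩ := idem_core hQ hι hH hirr (1 - e)
    (by simp only [sub_mul, mul_sub, one_mul, mul_one, hidem]; abel)
    (by
      intro u v
      have h1 := hadj u v
      rw [Matrix.sub_mulVec, Matrix.one_mulVec, sub_sub_cancel]
      rw [Matrix.sub_mulVec, Matrix.one_mulVec] at h1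
      have a1 : QuadraticMap.polar Q (u - e *ᵥ u) v
          = QuadraticMap.polar Q u v - QuadraticMap.polar Q (e *ᵥ u) v :=
        QuadraticMap.polar_sub_left (Cfsg.Agent.Lib.Helper94.quadOf Q hQ) u (e *ᵥ u) v
      have a2 : QuadraticMap.polar Q u (v - e *ᵥ v)
          = QuadraticMap.polar Q u v - QuadraticMap.polar Q u (e *ᵥ v) :=
        QuadraticMap.polar_sub_right (Cfsg.Agent.Lib.Helper94.quadOf Q hQ) u v (e *ᵥ v)
      rw [a1, h1, a2]
      ring)
    (by
      intro h hh
      have hcancel : (h : Matrix ι ι F) * ((h⁻¹ : GL ι F) : Matrix ι ι F) = 1 := by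
        rw [← Units.val_mul, mul_inv_cancel, Units.val_one]
      have e1 : (h : Matrix ι ι F) * (1 - e) * ((h⁻¹ : GL ι F) : Matrix ι ι F)
          = 1 - (h : Matrix ι ι F) * e * ((h⁻¹ : GL ι F) : Matrix ι ι F) := by
        rw [mul_sub, sub_mul, mul_one, hcancel]
      rw [e1]
      rcases hperm h hh with hc | hc
      · left; rw [hc]
      · right; rw [hc])
  rw [sub_sub_cancel] at ts2 hf2
  set U : Submodule F (ι → F) := LinearMap.ker (Matrix.toLin' (1 - e)) with hUdef
  set U' : Submodule F (ι → F) := LinearMap.ker (Matrix.toLin' e) with hU'def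
  have memU : ∀ u, u ∈ U ↔ e *ᵥ u = u := by
    intro u
    rw [hUdef, LinearMap.mem_ker, Matrix.toLin'_apply, Matrix.sub_mulVec, Matrix.one_mulVec,
      sub_eq_zero, eq_comm]
  have memU' : ∀ u, u ∈ U' ↔ e *ᵥ u = 0 := by
    intro u
    rw [hU'def, LinearMap.mem_ker, Matrix.toLin'_apply]
  have hff : Module.finrank F U = Module.finrank F U' := by omega
  refine ⟨Module.finrank F U, ![U, U'], isMDecomposition_pair hc (by omega) rfl hff.symm, ?_, ?_⟩
  · intro i
    fin_cases i
    · exact ts1
    · exact ts2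
  · intro h hh
    rw [Cfsg.Agent.Lib.Helper13.mem_decStab_two_iff _ hff]
    have hcancel : ((h⁻¹ : GL ι F) : Matrix ι ι F) * (h : Matrix ι ι F) = 1 := by
      rw [← Units.val_mul, inv_mul_cancel, Units.val_one]
    have key : ∀ (M : Matrix ι ι F),
        (h : Matrix ι ι F) * e * ((h⁻¹ : GL ι F) : Matrix ι ι F) = M → ∀ v,
        M *ᵥ ((h : Matrix ι ι F) *ᵥ v) = (h : Matrix ι ι F) *ᵥ (e *ᵥ v) := by
      intro M hM v
      rw [← hM, Matrix.mulVec_mulVec, Matrix.mul_assoc, hcancel, Matrix.mul_one,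
        Matrix.mulVec_mulVec]
    rcases hperm h hh with hc' | hc'
    · left
      constructor
      · intro x hx
        change Cfsg.Agent.Lib.Helper94.glEquiv ι F h x ∈ U
        rw [Cfsg.Agent.Lib.Helper94.glEquiv_apply, memU, key e hc', (memU x).1 hx]
      · intro x hx
        change Cfsg.Agent.Lib.Helper94.glEquiv ι F h x ∈ U'
        rw [Cfsg.Agent.Lib.Helper94.glEquiv_apply, memU', key e hc', (memU' x).1 hx,
          Matrix.mulVec_zero]
    · right
      constructor
      · intro x hx
        change Cfsg.Agent.Lib.Helper94.glEquiv ι F h x ∈ U'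
        have := key (1 - e) hc' x
        rw [(memU x).1 hx, Matrix.sub_mulVec, Matrix.one_mulVec, sub_eq_self] at this
        rw [Cfsg.Agent.Lib.Helper94.glEquiv_apply, memU']
        exact this
      · intro x hx
        change Cfsg.Agent.Lib.Helper94.glEquiv ι F h x ∈ U
        have := key (1 - e) hc' x
        rw [(memU' x).1 hx, Matrix.mulVec_zero, Matrix.sub_mulVec, Matrix.one_mulVec,
          sub_eq_zero] at this
        rw [Cfsg.Agent.Lib.Helper94.glEquiv_apply, memU]
        exact this.symm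

end Cfsg.Agent.Lib.Helper12.OE
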