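import Cfsg.Agent.Lib.Helper12.OE.CD
import Cfsg.Agent.Lib.Helper12.OE.YCB

set_option autoImplicit false
set_option linter.unusedSectionVars false

/-! # Piece YCD (helper99 farm, S5871) -/

namespace Cfsg.Agent.Lib.Helper12.OE

open Cfsg Cfsg.Geo Matrix Cfsg.Agent.Lib.Helper13.Asch Cfsg.Agent.Lib.Helper90.Sp
  Cfsg.Agent.Lib.Helper57.OE Cfsg.Agent.Lib.Helper12.Sp
open scoped Kronecker MatrixGroups

variable {ι : Type} [Fintype ι] [DecidableEq ι] {F : Type*} [Field F] {Q : (ι → F) → F}

/-- CD -/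
theorem o_comm_dichotomy_pair [Fintype F] (hQ : IsNondegenerateQuadraticForm Q)
    (hι : 2 < Fintype.card ι) {H : Subgroup (GL ι F)} (hH : FixesQuadForm (matrixSet H) Q)
    (hirr : ActsIrreducibly (matrixSet H)) (Z : Subalgebra F (Matrix ι ι F))
    (hZ : H ≤ subalgebraNormalizer Z) (hcomm : ∀ x ∈ Z, ∀ y ∈ Z, x * y = y * x)
    (hadj : IsAdjointClosedFor (QuadraticMap.polar Q) Z) :
    RDec Q H ∨ RPair Q H ∨ (∀ x ∈ Z, x ≠ 0 → ∃ y ∈ Z, x * y = 1) := by
  classical
  set f := QuadraticMap.polar Q with hfdef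
  have hf : IsSymmetricForm f :=
    ⟨hQ.polar_bilinear, fun u v => QuadraticMap.polar_comm Q u v, hQ.nondegenerate⟩
  have hH' : FixesForm (matrixSet H) f := fixesForm_polar12 hH
  set Z0 := saPart' hf Z hcomm with hZ0def
  have hZ0 : H ≤ subalgebraNormalizer Z0 := by
    intro h hh k
    constructor
    · rintro ⟨hk, hk'⟩
      exact ⟨(hZ hh k).1 hk, hk'.conj hH' hh⟩
    · rintro ⟨hk, hk'⟩
      refine ⟨(hZ hh k).2 hk, ?_⟩
      have h1 := hk'.conj hH' (H.inv_mem hh)
      have h2 : ((h⁻¹ : GL ι F) : Matrix ι ι F) *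
          ((h : Matrix ι ι F) * k * ((h⁻¹ : GL ι F) : Matrix ι ι F)) *
          (((h⁻¹)⁻¹ : GL ι F) : Matrix ι ι F) = k := by
        rw [inv_inv]
        calc ((h⁻¹ : GL ι F) : Matrix ι ι F) *
          ((h : Matrix ι ι F) * k * ((h⁻¹ : GL ι F) : Matrix ι ι F)) * (h : Matrix ι ι F)
            = (((h⁻¹ : GL ι F) : Matrix ι ι F) * (h : Matrix ι ι F)) * k *
              (((h⁻¹ : GL ι F) : Matrix ι ι F) * (h : Matrix ι ι F)) := by simp only [mul_assoc]
          _ = k := by rw [vim, one_mul, mul_one]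
      rwa [h2] at h1
  have hcomm0 : ∀ x ∈ Z0, ∀ y ∈ Z0, x * y = y * x := fun x hx y hy => hcomm x hx.1 y hy.1
  rcases Cfsg.Agent.Lib.Helper2.Sp.exists_idempotents H hirr Z0 hZ0 hcomm0 with
    hfield0 | ⟨t, e, ht, hinj, hprim, hex, horth, hsum⟩
  swap
  · left
    exact Cfsg.Agent.Lib.Helper72.OE.orth_of_selfadjoint_idempotents hQ hH hirr ht e hinj
      (fun i => (hprim i).2.1) (fun i => (hprim i).2.2.1) horth hsum
      (fun h hh i => hex _ (primIdem_conj (hZ0 hh) (hprim i))) (fun i => (hprim i).1.2)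
  have hid0 : ∀ x ∈ Z0, x * x = x → x = 0 ∨ x = 1 := by
    intro x hx hxx
    by_cases h0 : x = 0
    · left; exact h0
    · right
      obtain ⟨y, -, hy⟩ := hfield0 x hx h0
      calc x = x * (x * y) := by rw [hy, mul_one]
        _ = (x * x) * y := by rw [mul_assoc]
        _ = 1 := by rw [hxx, hy]
  rcases Cfsg.Agent.Lib.Helper2.Sp.exists_idempotents H hirr Z hZ hcomm with
    hfield | ⟨t, e, ht, hinj, hprim, hex, horth, hsum⟩
  · right; right; exact hfield
  right; left
  set e0 := e ⟨0, by omega⟩ with he0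
  have hp0 : IsPrimIdem Z e0 := hprim _
  obtain ⟨es, hesZ, hes'⟩ := hadj e0 hp0.1
  have hes : Adj f e0 es := hes'
  have hesid : es * es = es := by
    have := hes.mul hes
    rw [hp0.2.1] at this
    exact adj_unique hf this hes
  have hesprim : IsPrimIdem Z es := by
    refine ⟨hesZ, hesid, ?_, ?_⟩
    · intro h0
      rw [h0] at hes
      exact hp0.2.2.1 (adj_unique hf (adj_symm hf hes) (adj_zero' hf))
    · intro y hy hyy hxy
      obtain ⟨ys, hysZ, hys'⟩ := hadj y hy
      have hys : Adj f y ys := hys'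
      have h1 : ys * ys = ys := by
        have := hys.mul hys
        rw [hyy] at this
        exact adj_unique hf this hys
      have h2 : e0 * ys = ys := by
        have := (adj_symm hf hes).mul hys
        rw [hxy] at this
        rw [hcomm e0 hp0.1 ys hysZ]
        exact adj_unique hf this hys
      rcases hp0.2.2.2 ys hysZ h1 h2 with h | h
      · left
        rw [h] at hys
        exact adj_unique hf (adj_symm hf hys) (adj_zero' hf)
      · right
        rw [h] at hys
        exact adj_unique hf (adj_symm hf hys) hes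
  -- `es ≠ e0`
  have hne : es ≠ e0 := by
    intro h
    rw [h] at hes
    have hmem : e0 ∈ Z0 := ⟨hp0.1, hes⟩
    rcases hid0 e0 hmem hp0.2.1 with h0 | h1
    · exact hp0.2.2.1 h0
    · have h01 : (⟨0, by omega⟩ : Fin t) ≠ ⟨1, by omega⟩ := by
        intro h; simpa using congrArg Fin.val h
      have := horth _ _ h01
      rw [← he0, h1, one_mul] at this
      exact (hprim _).2.2.1 this
  obtain ⟨j, hj⟩ := hex es hesprim
  have hprod : e0 * es = 0 := by
    rw [hj]
    apply horth
    intro h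
    apply hne
    rw [hj, ← h]
  have hprod' : es * e0 = 0 := by rw [hcomm es hesZ e0 hp0.1, hprod]
  have hsum1 : e0 + es = 1 := by
    have hmem : e0 + es ∈ Z0 := by
      refine ⟨Z.add_mem hp0.1 hesZ, ?_⟩
      have := adj_add hf hes (adj_symm hf hes)
      rwa [add_comm es e0] at this
    have hidem : (e0 + es) * (e0 + es) = e0 + es := by
      rw [add_mul, mul_add, mul_add, hp0.2.1, hesid, hprod, hprod', add_zero, zero_add]
    rcases hid0 _ hmem hidem with h0 | h1
    · exfalso
      apply hp0.2.2.1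
      calc e0 = e0 * (e0 + es) := by rw [mul_add, hp0.2.1, hprod, add_zero]
        _ = 0 := by rw [h0, mul_zero]
    · exact h1
  have hes1 : es = 1 - e0 := by rw [← hsum1]; abel
  have hall : ∀ x, IsPrimIdem Z x → x = e0 ∨ x = es := by
    intro x hx
    obtain ⟨i, hi⟩ := hex x hx
    by_contra hcon
    push Not at hcon
    apply hx.2.2.1
    have h1 : x * e0 = 0 := by
      rw [hi]
      apply horth
      intro h
      apply hcon.1
      rw [hi, h]
    have h2 : x * es = 0 := by
      rw [hi, hj]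
      apply horth
      intro h
      apply hcon.2
      rw [hi, hj, h]
    calc x = x * (e0 + es) := by rw [hsum1, mul_one]
      _ = 0 := by rw [mul_add, h1, h2, add_zero]
  apply rpair_of_isotropic_idempotent hQ hι hH hirr e0 hp0.2.1
  · rw [← hes1]; exact hes
  · intro h hh
    rw [← hes1]
    exact hall _ (primIdem_conj (hZ hh) hp0)

end Cfsg.Agent.Lib.Helper12.OE
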