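import Cfsg.Agent.Lib.Helper51.OE.F1
import Cfsg.Agent.Lib.Helper57.OE.Base
import Cfsg.Agent.Lib.Helper57.OE.Defs2
import Cfsg.Agent.Lib.Helper98.OE.G0
import Cfsg.Agent.Lib.Helper98.OE.G1

set_option autoImplicit false
set_option linter.unusedSectionVars false

/-! # Piece YT1 (helper99 farm, S5871): the factor of dimension 4 in `3 ⊗ 4` is of plus type -/

namespace Cfsg.Agent.Lib.Helper12.OE

open Cfsg Cfsg.Geo Matrix Cfsg.Agent.Lib.Helper13.Asch Cfsg.Agent.Lib.Helper90.Sp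
open Cfsg.Agent.Lib.Helper57.OE
open Cfsg.Agent.Lib.Helper51.OE (perp)
open scoped Kronecker MatrixGroups

variable {ι : Type} [Fintype ι] [DecidableEq ι] {F : Type*} [Field F] {Q : (ι → F) → F}

/-- the slice `y ↦ P (x ⊗ y)` -/
def slc {a b : ℕ} (e : ι ≃ Fin a × Fin b) (P : GL ι F) (x : Fin a → F) :
    (Fin b → F) →ₗ[F] (ι → F) where
  toFun y := pureV e P x y
  map_add' y y' := by
    unfold pureV
    rw [← Matrix.mulVec_add]
    congr 1
    ext i
    simp [mul_add]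
  map_smul' c y := by
    unfold pureV
    rw [RingHom.id_apply, ← Matrix.mulVec_smul]
    congr 1
    ext i
    simp [mul_left_comm]

theorem slc_apply {a b : ℕ} (e : ι ≃ Fin a × Fin b) (P : GL ι F) (x : Fin a → F) (y : Fin b → F) :
    slc e P x y = pureV e P x y := rfl

theorem slc_injective {a b : ℕ} (e : ι ≃ Fin a × Fin b) (P : GL ι F) (x : Fin a → F) (hx : x ≠ 0) :
    Function.Injective (slc e P x) := by
  rw [← LinearMap.ker_eq_bot, LinearMap.ker_eq_bot']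
  intro y hy
  rw [slc_apply, pureV] at hy
  have h1 : ((fun p : Fin a × Fin b => x p.1 * y p.2) ∘ e) = 0 := by
    have := congrArg (fun v => ((P⁻¹ : GL ι F) : Matrix ι ι F) *ᵥ v) hy
    simp only [Matrix.mulVec_mulVec, ← Units.val_mul, inv_mul_cancel, Units.val_one,
      Matrix.one_mulVec, Matrix.mulVec_zero] at this
    exact this
  obtain ⟨i, hi⟩ : ∃ i, x i ≠ 0 := by
    by_contra hcon
    push Not at hcon
    exact hx (funext hcon)
  funext j
  have h2 := congrFun h1 (e.symm (i, j))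
  simp only [Function.comp, Equiv.apply_symm_apply, Pi.zero_apply] at h2
  exact (mul_eq_zero.1 h2).resolve_left hi

/-- YT1, with the conclusions of YT1a (`diag_three`) and G10 (`plus_of_isometric_pair`) as
hypotheses -/
theorem tensor_three_plus_of (h2 : (2 : F) ≠ 0) (hQ : IsNondegenerateQuadraticForm Q)
    (hplus : IsPlusTypeOn Q ⊤) (e : ι ≃ Fin 3 × Fin 4) (P : GL ι F)
    {G₁ : Matrix (Fin 3) (Fin 3) F} {G₂ : Matrix (Fin 4) (Fin 4) F}
    (hG : TensGram (QuadraticMap.polar Q) e P G₁ G₂) (h2' : IsUnit G₂.det)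
    (hdiag : ∃ (b : Fin 3 → (Fin 3 → F)) (d d' : F), d ≠ 0 ∧ d' ≠ 0 ∧
      (∀ i j, i ≠ j → b i ⬝ᵥ (G₁ *ᵥ b j) = 0) ∧ b 0 ⬝ᵥ (G₁ *ᵥ b 0) = d ∧
      b 1 ⬝ᵥ (G₁ *ᵥ b 1) = d ∧ b 2 ⬝ᵥ (G₁ *ᵥ b 2) = d')
    (plus_of_isometric_pair : ∀ {A B : Submodule F (ι → F)},
      IsNondegenerateOn (QuadraticMap.polar Q) A → B ≤ perp hQ A → AreIsometricFor Q A B →
      Even (Module.finrank F A) → IsPlusTypeOn Q (A ⊔ B)) :
    ∃ U : Submodule F (Fin 4 → F), Module.finrank F U = 2 ∧ ∀ u ∈ U, u ⬝ᵥ (G₂ *ᵥ u) = 0 := by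
  classical
  obtain ⟨b, d, d', hd, hd', horth, hb0, hb1, hb2⟩ := hdiag
  have hval : ∀ i, b i ⬝ᵥ (G₁ *ᵥ b i) ≠ 0 := by
    intro i
    fin_cases i
    · simpa [hb0] using hd
    · simpa [hb1] using hd
    · simpa [hb2] using hd'
  have hbne : ∀ i, b i ≠ 0 := by
    intro i h
    apply hval i
    rw [h, zero_dotProduct]
  have hinj : ∀ i, Function.Injective (slc e P (b i)) := fun i => slc_injective e P (b i) (hbne i)
  have hpol : ∀ i k y y', QuadraticMap.polar Q (slc e P (b i) y) (slc e P (b k) y')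
      = (b i ⬝ᵥ (G₁ *ᵥ b k)) * (y ⬝ᵥ (G₂ *ᵥ y')) := fun i k y y' => tensGram_pure hG _ _ _ _
  have hq : ∀ i y, 2 * Q (slc e P (b i) y) = (b i ⬝ᵥ (G₁ *ᵥ b i)) * (y ⬝ᵥ (G₂ *ᵥ y)) := by
    intro i y
    rw [two_mul_Q hQ, hpol]
  have hfr : ∀ i, Module.finrank F (LinearMap.range (slc e P (b i))) = 4 := by
    intro i
    rw [LinearMap.finrank_range_of_inj (hinj i), Module.finrank_fin_fun]
  have hG2 : ∀ y : Fin 4 → F, y ≠ 0 → ∃ y', y' ⬝ᵥ (G₂ *ᵥ y) ≠ 0 := by
    intro y hy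
    by_contra hcon
    push Not at hcon
    apply hy
    have h0 : G₂ *ᵥ y = 0 := by
      funext j
      have := hcon (Pi.single j 1)
      simpa using this
    have := congrArg (fun v => G₂⁻¹ *ᵥ v) h0
    simp only [Matrix.mulVec_mulVec, Matrix.nonsing_inv_mul _ h2', Matrix.one_mulVec,
      Matrix.mulVec_zero] at this
    exact this
  have hnd : ∀ i, IsNondegenerateOn (QuadraticMap.polar Q) (LinearMap.range (slc e P (b i))) := by
    intro i w hw hw0
    obtain ⟨y, rfl⟩ := hw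
    have hy : y ≠ 0 := by
      rintro rfl
      exact hw0 (map_zero _)
    obtain ⟨y', hy'⟩ := hG2 y hy
    have hne : QuadraticMap.polar Q (slc e P (b i) y') (slc e P (b i) y) ≠ 0 := by
      rw [hpol]
      exact mul_ne_zero (hval i) hy'
    exact ⟨⟨_, ⟨y', rfl⟩, hne⟩, ⟨_, ⟨y', rfl⟩, by rwa [QuadraticMap.polar_comm]⟩⟩
  have hperp : ∀ i k, i ≠ k →
      LinearMap.range (slc e P (b k)) ≤ perp hQ (LinearMap.range (slc e P (b i))) := by
    rintro i k hik _ ⟨y', rfl⟩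
    rw [Cfsg.Agent.Lib.Helper51.OE.mem_perp]
    rintro _ ⟨y, rfl⟩
    rw [hpol, horth i k hik, zero_mul]
  set W0 := LinearMap.range (slc e P (b 0)) with hW0
  set W1 := LinearMap.range (slc e P (b 1)) with hW1
  set W2 := LinearMap.range (slc e P (b 2)) with hW2
  have hiso : AreIsometricFor Q W0 W1 := by
    refine ⟨(LinearEquiv.ofInjective _ (hinj 0)).symm.trans (LinearEquiv.ofInjective _ (hinj 1)), ?_⟩
    rintro ⟨_, ⟨y, rfl⟩⟩
    have e1 : (LinearEquiv.ofInjective _ (hinj 0)).symm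
        (⟨slc e P (b 0) y, ⟨y, rfl⟩⟩ : LinearMap.range (slc e P (b 0))) = y := by
      apply (LinearEquiv.ofInjective _ (hinj 0)).injective
      rw [LinearEquiv.apply_symm_apply]
      rfl
    rw [LinearEquiv.trans_apply, e1]
    change Q (slc e P (b 1) y) = Q (slc e P (b 0) y)
    have a0 := hq 0 y
    have a1 := hq 1 y
    rw [hb0] at a0
    rw [hb1] at a1
    exact mul_left_cancel₀ h2 (a1.trans a0.symm)
  have hplusA : IsPlusTypeOn Q (W0 ⊔ W1) :=
    plus_of_isometric_pair (hnd 0) (hperp 0 1 (by decide)) hiso (by rw [hfr 0]; decide)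
  have hdisj : W0 ⊓ W1 = ⊥ := by
    have hc := (Cfsg.Agent.Lib.Helper98.OE.perp_nondeg hQ W0 (hnd 0)).2
    rw [eq_bot_iff, ← hc.inf_eq_bot]
    exact inf_le_inf_left _ (hperp 0 1 (by decide))
  have hndA : IsNondegenerateOn (QuadraticMap.polar Q) (W0 ⊔ W1) := by
    have key : ∀ w ∈ W0 ⊔ W1, w ≠ 0 → ∃ x ∈ W0 ⊔ W1, QuadraticMap.polar Q x w ≠ 0 := by
      intro w hw hw0
      obtain ⟨w0, hw0m, w1, hw1m, rfl⟩ := Submodule.mem_sup.1 hw
      by_cases h0 : w0 = 0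
      · have h1' : w1 ≠ 0 := by
          rintro rfl
          exact hw0 (by rw [h0, add_zero])
        obtain ⟨⟨x, hx, hxw⟩, -⟩ := hnd 1 w1 hw1m h1'
        refine ⟨x, Submodule.mem_sup_right hx, ?_⟩
        rw [hQ.polar_bilinear.add_right]
        have : QuadraticMap.polar Q x w0 = 0 := by rw [h0]; simpa using hQ.polar_bilinear.smul_right 0 x 0
        rwa [this, zero_add]
      · obtain ⟨⟨x, hx, hxw⟩, -⟩ := hnd 0 w0 hw0m h0
        refine ⟨x, Submodule.mem_sup_left hx, ?_⟩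
        rw [hQ.polar_bilinear.add_right]
        have : QuadraticMap.polar Q x w1 = 0 :=
          (Cfsg.Agent.Lib.Helper51.OE.mem_perp hQ).1 (hperp 0 1 (by decide) hw1m) x hx
        rwa [this, add_zero]
    intro w hw hw0
    obtain ⟨x, hx, hxw⟩ := key w hw hw0
    exact ⟨⟨x, hx, hxw⟩, ⟨x, hx, by rwa [QuadraticMap.polar_comm]⟩⟩
  obtain ⟨U', hU'le, hU'ts, hU'fr⟩ :=
    Cfsg.Agent.Lib.Helper98.OE.plus_perp hQ hplus (W0 ⊔ W1) hndA hplusA
  have hcard : Fintype.card ι = 12 := by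
    rw [Fintype.card_congr e]; simp
  have hfrA : Module.finrank F ↥(W0 ⊔ W1) = 8 := by
    have := Submodule.finrank_sup_add_finrank_inf_eq W0 W1
    rw [hdisj, finrank_bot, hfr 0, hfr 1] at this
    omega
  have hfrP : Module.finrank F (perp hQ (W0 ⊔ W1)) = 4 := by
    have := Cfsg.Agent.Lib.Helper51.OE.finrank_perp hQ (W0 ⊔ W1)
    omega
  have hW2le : W2 ≤ perp hQ (W0 ⊔ W1) := by
    intro x hx
    rw [Cfsg.Agent.Lib.Helper51.OE.mem_perp]
    intro w hw
    obtain ⟨w0, hw0m, w1, hw1m, rfl⟩ := Submodule.mem_sup.1 hw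
    rw [hQ.polar_bilinear.add_left,
      (Cfsg.Agent.Lib.Helper51.OE.mem_perp hQ).1 (hperp 0 2 (by decide) hx) w0 hw0m,
      (Cfsg.Agent.Lib.Helper51.OE.mem_perp hQ).1 (hperp 1 2 (by decide) hx) w1 hw1m, add_zero]
  have hW2eq : W2 = perp hQ (W0 ⊔ W1) :=
    Submodule.eq_of_le_of_finrank_eq hW2le (by rw [hfr 2, hfrP])
  refine ⟨U'.comap (slc e P (b 2)), ?_, ?_⟩
  · have hmap : (U'.comap (slc e P (b 2))).map (slc e P (b 2)) = U' := by
      rw [Submodule.map_comap_eq, inf_eq_right]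
      rw [← hW2eq] at hU'le
      exact hU'le
    have h3 := (Submodule.equivMapOfInjective _ (hinj 2) (U'.comap (slc e P (b 2)))).finrank_eq
    rw [hmap] at h3
    omega
  · intro u hu
    have h3 : Q (slc e P (b 2) u) = 0 := hU'ts _ hu
    have h4 := hq 2 u
    rw [h3, mul_zero, hb2] at h4
    exact (mul_eq_zero.1 h4.symm).resolve_left hd'

end Cfsg.Agent.Lib.Helper12.OE
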