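import Cfsg.Agent.Lib.Helper12.OE.YT1
import Cfsg.Agent.Lib.Helper30.OE.G10
import Cfsg.Agent.Lib.Helper22.OE.YT1a

set_option autoImplicit false
set_option linter.unusedSectionVars false
set_option linter.unusedVariables false

/-! # Piece YT1 (helper99 farm, S5871), exact statement -/

namespace Cfsg.Agent.Lib.Helper12.OE

open Cfsg Cfsg.Geo Matrix Cfsg.Agent.Lib.Helper13.Asch Cfsg.Agent.Lib.Helper90.Sp
open Cfsg.Agent.Lib.Helper57.OE
open Cfsg.Agent.Lib.Helper51.OE (perp)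
open scoped Kronecker MatrixGroups

variable {ι : Type} [Fintype ι] [DecidableEq ι] {F : Type*} [Field F] {Q : (ι → F) → F}

/-- YT1 -/
theorem tensor_three_plus [Fintype F] (h2 : (2 : F) ≠ 0) (hQ : IsNondegenerateQuadraticForm Q)
    (hplus : IsPlusTypeOn Q ⊤) (e : ι ≃ Fin 3 × Fin 4) (P : GL ι F)
    {G₁ : Matrix (Fin 3) (Fin 3) F} {G₂ : Matrix (Fin 4) (Fin 4) F}
    (hG : TensGram (QuadraticMap.polar Q) e P G₁ G₂) (h1 : IsUnit G₁.det) (h2' : IsUnit G₂.det)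
    (hs1 : G₁ᵀ = G₁) (hs2 : G₂ᵀ = G₂) :
    ∃ U : Submodule F (Fin 4 → F), Module.finrank F U = 2 ∧ ∀ u ∈ U, u ⬝ᵥ (G₂ *ᵥ u) = 0 :=
  tensor_three_plus_of h2 hQ hplus e P hG h2' (Cfsg.Agent.Lib.Helper22.OE.diag_three h2 G₁ hs1 h1)
    (fun a b c d => Cfsg.Agent.Lib.Helper30.OE.plus_of_isometric_pair hQ a b c d)

end Cfsg.Agent.Lib.Helper12.OE
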