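import Cfsg.Agent.Lib.Helper90.OE.Defs
import Cfsg.Agent.Lib.Helper45.OSubB
import Cfsg.Agent.Lib.Helper94.QuadWrap

set_option autoImplicit false
set_option linter.unusedSectionVars false

/-! # Pieces ZCG1, ZCG2 (helper90 farm): hyperbolic pairs -/

namespace Cfsg.Agent.Lib.Helper12.OE

open Cfsg Cfsg.Geo Matrix Cfsg.Agent.Lib.Helper90.OE Cfsg.Agent.Lib.Helper94
open scoped MatrixGroups

variable {ι : Type} [Fintype ι] [DecidableEq ι] {F : Type*} [Field F] {Q : (ι → F) → F}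

lemma polar_comm' (Q : (ι → F) → F) (x y : ι → F) :
    QuadraticMap.polar Q x y = QuadraticMap.polar Q y x := QuadraticMap.polar_comm Q x y

lemma hyp_ext_fun [Fintype F] (hQ : IsNondegenerateQuadraticForm Q) {k : ℕ}
    (e f : Fin k → ι → F) (h : Cfsg.Agent.Lib.Helper14.HypSys (quadOf Q hQ) e f)
    (hk : 2 * k + 3 ≤ Fintype.card ι) :
    ∃ u w, HypPair Q u w ∧ ∀ i, Perp2 Q (e i) (f i) u ∧ Perp2 Q (e i) (f i) w := by
  obtain ⟨u, w, h1, h2, h3, h4, h5⟩ := Cfsg.Agent.Lib.Helper45.OSub.hyp_extend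
    (q := quadOf Q hQ) (pB_quadOf_nondegenerate Q hQ) h
    (by rw [Module.finrank_fintype_fun_eq_card]; exact hk)
  refine ⟨u, w, ⟨h1, h2, h3⟩, fun i => ⟨⟨?_, ?_⟩, ⟨?_, ?_⟩⟩⟩
  · rw [polar_comm']; exact (h4 i).1
  · rw [polar_comm']; exact (h4 i).2
  · rw [polar_comm']; exact (h5 i).1
  · rw [polar_comm']; exact (h5 i).2

lemma hypSys0 (hQ : IsNondegenerateQuadraticForm Q) :
    Cfsg.Agent.Lib.Helper14.HypSys (quadOf Q hQ) (Fin.elim0 : Fin 0 → ι → F)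
      (Fin.elim0 : Fin 0 → ι → F) :=
  ⟨fun i => i.elim0, fun i => i.elim0, fun i => i.elim0, fun i => i.elim0, fun i => i.elim0⟩

/-- CG1a -/
theorem exists_hyp0 [Fintype F] (hQ : IsNondegenerateQuadraticForm Q) (hι : 3 ≤ Fintype.card ι) :
    ∃ e f, HypPair Q e f := by
  obtain ⟨u, w, h, -⟩ := hyp_ext_fun hQ _ _ (hypSys0 hQ) (by omega)
  exact ⟨u, w, h⟩

/-- CG1b -/
theorem exists_hyp1 [Fintype F] (hQ : IsNondegenerateQuadraticForm Q) (hι : 5 ≤ Fintype.card ι)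
    {e₁ f₁ : ι → F} (h₁ : HypPair Q e₁ f₁) :
    ∃ e f, HypPair Q e f ∧ Perp2 Q e₁ f₁ e ∧ Perp2 Q e₁ f₁ f := by
  have s1 := (hypSys0 hQ).cons (u := e₁) (w := f₁) h₁.qe h₁.qf h₁.pef (fun i => i.elim0)
    (fun i => i.elim0)
  obtain ⟨u, w, h, h'⟩ := hyp_ext_fun hQ _ _ s1 (by omega)
  have := h' 0
  simp only [Fin.cons_zero] at this
  exact ⟨u, w, h, this.1, this.2⟩

/-- CG1c -/
theorem exists_hyp2 [Fintype F] (hQ : IsNondegenerateQuadraticForm Q) (hι : 7 ≤ Fintype.card ι)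
    {e₁ f₁ e₂ f₂ : ι → F} (h₁ : HypPair Q e₁ f₁) (h₂ : HypPair Q e₂ f₂)
    (he : Perp2 Q e₁ f₁ e₂) (hf : Perp2 Q e₁ f₁ f₂) :
    ∃ e f, HypPair Q e f ∧ Perp2 Q e₁ f₁ e ∧ Perp2 Q e₁ f₁ f ∧ Perp2 Q e₂ f₂ e ∧ Perp2 Q e₂ f₂ f := by
  have s1 := (hypSys0 hQ).cons (u := e₁) (w := f₁) h₁.qe h₁.qf h₁.pef (fun i => i.elim0)
    (fun i => i.elim0)
  have s2 := s1.cons (u := e₂) (w := f₂) h₂.qe h₂.qf h₂.pef
    (fun i => by
      refine Fin.cases ?_ (fun i => i.elim0) i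
      simp only [Fin.cons_zero]
      exact ⟨by rw [QuadraticMap.polar_comm]; exact he.1, by rw [QuadraticMap.polar_comm]; exact he.2⟩)
    (fun i => by
      refine Fin.cases ?_ (fun i => i.elim0) i
      simp only [Fin.cons_zero]
      exact ⟨by rw [QuadraticMap.polar_comm]; exact hf.1, by rw [QuadraticMap.polar_comm]; exact hf.2⟩)
  obtain ⟨u, w, h, h'⟩ := hyp_ext_fun hQ _ _ s2 (by omega)
  have t0 := h' 0
  have t1 := h' 1
  simp only [Fin.cons_zero] at t0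
  have e1 : (1 : Fin 2) = Fin.succ 0 := rfl
  rw [e1] at t1
  simp only [Fin.cons_succ, Fin.cons_zero] at t1
  exact ⟨u, w, h, t1.1, t1.2, t0.1, t0.2⟩

/-- CG2 -/
theorem exists_partner (hQ : IsNondegenerateQuadraticForm Q) {u : ι → F} (hu0 : u ≠ 0)
    (hu : Q u = 0) : ∃ f, HypPair Q u f := by
  obtain ⟨w, h1, h2⟩ := Cfsg.Agent.Lib.Helper14.exists_partner (quadOf Q hQ)
    (pB_quadOf_nondegenerate Q hQ) u hu0 hu
  exact ⟨w, hu, h1, h2⟩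

end Cfsg.Agent.Lib.Helper12.OE
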