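import Cfsg.Agent.Lib.Helper12.OE.ZCG1

set_option autoImplicit false
set_option linter.unusedSectionVars false

/-! # Pieces ZCG3, ZCG4, ZCG5 (helper90 farm): geometry of singular vectors -/

namespace Cfsg.Agent.Lib.Helper12.OE

open Cfsg Cfsg.Geo Matrix Cfsg.Agent.Lib.Helper90.OE Cfsg.Agent.Lib.Helper94
open scoped MatrixGroups

variable {ι : Type} [Fintype ι] [DecidableEq ι] {F : Type*} [Field F] {Q : (ι → F) → F}

section api

variable (hQ : IsNondegenerateQuadraticForm Q)
include hQ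

lemma zq_add (x y : ι → F) : Q (x + y) = Q x + Q y + QuadraticMap.polar Q x y := by
  rw [QuadraticMap.polar]; ring

lemma zq_smul (a : F) (x : ι → F) : Q (a • x) = a * a * Q x :=
  (quadOf Q hQ).map_smul a x

lemma zp_add_left (x x' y : ι → F) :
    QuadraticMap.polar Q (x + x') y = QuadraticMap.polar Q x y + QuadraticMap.polar Q x' y :=
  QuadraticMap.polar_add_left (quadOf Q hQ) x x' y

lemma zp_add_right (x y y' : ι → F) :
    QuadraticMap.polar Q x (y + y') = QuadraticMap.polar Q x y + QuadraticMap.polar Q x y' :=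
  QuadraticMap.polar_add_right (quadOf Q hQ) x y y'

lemma zp_sub_left (x x' y : ι → F) :
    QuadraticMap.polar Q (x - x') y = QuadraticMap.polar Q x y - QuadraticMap.polar Q x' y :=
  QuadraticMap.polar_sub_left (quadOf Q hQ) x x' y

lemma zp_sub_right (x y y' : ι → F) :
    QuadraticMap.polar Q x (y - y') = QuadraticMap.polar Q x y - QuadraticMap.polar Q x y' :=
  QuadraticMap.polar_sub_right (quadOf Q hQ) x y y'

lemma zp_smul_left (a : F) (x y : ι → F) :
    QuadraticMap.polar Q (a • x) y = a * QuadraticMap.polar Q x y :=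
  QuadraticMap.polar_smul_left (quadOf Q hQ) a x y

lemma zp_smul_right (a : F) (x y : ι → F) :
    QuadraticMap.polar Q x (a • y) = a * QuadraticMap.polar Q x y :=
  QuadraticMap.polar_smul_right (quadOf Q hQ) a x y

lemma zp_self_of_sing {x : ι → F} (hx : Q x = 0) : QuadraticMap.polar Q x x = 0 := by
  have := QuadraticMap.polar_self (quadOf Q hQ) x
  change QuadraticMap.polar Q x x = 2 • Q x at this
  rw [this, hx, smul_zero]

lemma zq_neg (x : ι → F) : Q (-x) = Q x := (quadOf Q hQ).map_neg x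

lemma zq_sub (x y : ι → F) : Q (x - y) = Q x + Q y - QuadraticMap.polar Q x y := by
  have h1 := zq_add hQ x (-y)
  have h2 : QuadraticMap.polar Q x (-y) = - QuadraticMap.polar Q x y :=
    QuadraticMap.polar_neg_right (quadOf Q hQ) x y
  rw [← sub_eq_add_neg, zq_neg hQ, h2] at h1
  rw [h1]; ring

/-- the standard singular vector `y + e - Q y • f` for `y ⊥ e, f`. -/
lemma sing_of_perp {e f y : ι → F} (h : HypPair Q e f) (hy : Perp2 Q e f y) :
    Q (y + e - Q y • f) = 0 := by
  rw [zq_sub hQ, zq_add hQ, zq_smul hQ, h.qe, h.qf, zp_smul_right hQ, zp_add_left hQ, h.pef,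
    polar_comm' Q y e, hy.1, polar_comm' Q y f, hy.2]
  ring

lemma li_pair {x y f g : ι → F} (hxf : QuadraticMap.polar Q x f = 1)
    (hyf : QuadraticMap.polar Q y f = 0) (hxg : QuadraticMap.polar Q x g = 0)
    (hyg : QuadraticMap.polar Q y g = 1) : LinearIndependent F ![x, y] := by
  rw [LinearIndependent.pair_iff]
  intro s t hst
  have h1 : QuadraticMap.polar Q (s • x + t • y) f = 0 := by
    rw [hst]; exact QuadraticMap.polar_zero_left (quadOf Q hQ) f
  have h2 : QuadraticMap.polar Q (s • x + t • y) g = 0 := by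
    rw [hst]; exact QuadraticMap.polar_zero_left (quadOf Q hQ) g
  rw [zp_add_left hQ, zp_smul_left hQ, zp_smul_left hQ, hxf, hyf] at h1
  rw [zp_add_left hQ, zp_smul_left hQ, zp_smul_left hQ, hxg, hyg] at h2
  exact ⟨by linear_combination h1, by linear_combination h2⟩

end api

/-- CG3 -/
theorem exists_singular_not_perp [Fintype F] (hQ : IsNondegenerateQuadraticForm Q)
    (hι : 3 ≤ Fintype.card ι) {w : ι → F} (hw : w ≠ 0) :
    ∃ u, Q u = 0 ∧ QuadraticMap.polar Q u w ≠ 0 := by
  obtain ⟨e, f, h⟩ := exists_hyp0 hQ hι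
  by_cases he : QuadraticMap.polar Q e w = 0
  swap
  · exact ⟨e, h.qe, he⟩
  by_cases hf : QuadraticMap.polar Q f w = 0
  swap
  · exact ⟨f, h.qf, hf⟩
  obtain ⟨y, hy⟩ : ∃ y, QuadraticMap.polar Q y w ≠ 0 := by
    by_contra hcon
    push Not at hcon
    apply hw
    apply (pB_quadOf_nondegenerate Q hQ).1 w
    intro y
    have := hcon y
    rw [polar_comm'] at this
    exact this
  have hee := zp_self_of_sing hQ h.qe
  have hff := zp_self_of_sing hQ h.qf
  have hfe : QuadraticMap.polar Q f e = 1 := by rw [polar_comm', h.pef]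
  set y' : ι → F := y - QuadraticMap.polar Q y f • e - QuadraticMap.polar Q y e • f with hy'
  have hp : Perp2 Q e f y' := by
    constructor
    · rw [hy', zp_sub_right hQ, zp_sub_right hQ, zp_smul_right hQ, zp_smul_right hQ, hee, h.pef,
        polar_comm' Q e y]
      ring
    · rw [hy', zp_sub_right hQ, zp_sub_right hQ, zp_smul_right hQ, zp_smul_right hQ, hff, hfe,
        polar_comm' Q f y]
      ring
  have hyw : QuadraticMap.polar Q y' w = QuadraticMap.polar Q y w := by
    rw [hy', zp_sub_left hQ, zp_sub_left hQ, zp_smul_left hQ, zp_smul_left hQ, he, hf]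
    ring
  refine ⟨y' + e - Q y' • f, sing_of_perp hQ h hp, ?_⟩
  rw [zp_sub_left hQ, zp_add_left hQ, zp_smul_left hQ, he, hf, hyw]
  simpa using hy

/-- CG5 -/
theorem mem_of_singular_mem [Fintype F] (hQ : IsNondegenerateQuadraticForm Q)
    (hι : 5 ≤ Fintype.card ι) {e f : ι → F} (h : HypPair Q e f) (W : Submodule F (ι → F))
    (hW : ∀ v, Q v = 0 → Perp2 Q e f v → v ∈ W) (y : ι → F) (hy : Perp2 Q e f y) : y ∈ W := by
  obtain ⟨e', f', h', pe, pf⟩ := exists_hyp1 hQ hι h
  have me : e' ∈ W := hW e' h'.qe pe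
  have mf : f' ∈ W := hW f' h'.qf pf
  have hee := zp_self_of_sing hQ h'.qe
  have hff := zp_self_of_sing hQ h'.qf
  have hfe : QuadraticMap.polar Q f' e' = 1 := by rw [polar_comm', h'.pef]
  set y₀ : ι → F := y - QuadraticMap.polar Q y f' • e' - QuadraticMap.polar Q y e' • f' with hy₀
  have hp' : Perp2 Q e' f' y₀ := by
    constructor
    · rw [hy₀, zp_sub_right hQ, zp_sub_right hQ, zp_smul_right hQ, zp_smul_right hQ, hee, h'.pef,
        polar_comm' Q e' y]
      ring
    · rw [hy₀, zp_sub_right hQ, zp_sub_right hQ, zp_smul_right hQ, zp_smul_right hQ, hff, hfe,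
        polar_comm' Q f' y]
      ring
  have hp : Perp2 Q e f y₀ := by
    constructor
    · rw [hy₀, zp_sub_right hQ, zp_sub_right hQ, zp_smul_right hQ, zp_smul_right hQ, hy.1, pe.1,
        pf.1]
      ring
    · rw [hy₀, zp_sub_right hQ, zp_sub_right hQ, zp_smul_right hQ, zp_smul_right hQ, hy.2, pe.2,
        pf.2]
      ring
  have hz : y₀ + e' - Q y₀ • f' ∈ W := by
    apply hW _ (sing_of_perp hQ h' hp')
    constructor
    · rw [zp_sub_right hQ, zp_add_right hQ, zp_smul_right hQ, hp.1, pe.1, pf.1]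
      ring
    · rw [zp_sub_right hQ, zp_add_right hQ, zp_smul_right hQ, hp.2, pe.2, pf.2]
      ring
  have : y = (y₀ + e' - Q y₀ • f') - e' + Q y₀ • f' + QuadraticMap.polar Q y f' • e'
      + QuadraticMap.polar Q y e' • f' := by
    rw [hy₀]; abel
  rw [this]
  exact W.add_mem (W.add_mem (W.add_mem (W.sub_mem hz me) (W.smul_mem _ mf)) (W.smul_mem _ me))
    (W.smul_mem _ mf)

/-- CG4 -/
theorem exists_ts_triple [Fintype F] (hQ : IsNondegenerateQuadraticForm Q)
    (hι : 7 ≤ Fintype.card ι) {u : ι → F} (hu0 : u ≠ 0) (hu : Q u = 0) :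
    ∃ v w, TSPair Q u v ∧ TSPair Q u w ∧ TSPair Q v w ∧ LinearIndependent F ![u, v, w] := by
  obtain ⟨f, h₁⟩ := exists_partner hQ hu0 hu
  obtain ⟨v, f₂, h₂, pv, pf₂⟩ := exists_hyp1 hQ (by omega) h₁
  obtain ⟨w, f₃, h₃, pw, pf₃, pw', pf₃'⟩ := exists_hyp2 hQ hι h₁ h₂ pv pf₂
  have huu := zp_self_of_sing hQ hu
  have hvv := zp_self_of_sing hQ h₂.qe
  have hww := zp_self_of_sing hQ h₃.qe
  have vf : QuadraticMap.polar Q v f = 0 := by rw [polar_comm']; exact pv.2
  have wf : QuadraticMap.polar Q w f = 0 := by rw [polar_comm']; exact pw.2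
  have wf₂ : QuadraticMap.polar Q w f₂ = 0 := by rw [polar_comm']; exact pw'.2
  have hli : LinearIndependent F ![u, v, w] := by
    rw [Fintype.linearIndependent_iff]
    intro g hg
    rw [Fin.sum_univ_three] at hg
    simp only [Matrix.cons_val_zero, Matrix.cons_val_one, Matrix.cons_val] at hg
    have key : ∀ z, g 0 * QuadraticMap.polar Q u z + g 1 * QuadraticMap.polar Q v z
        + g 2 * QuadraticMap.polar Q w z = 0 := by
      intro z
      have h1 : QuadraticMap.polar Q (g 0 • u + g 1 • v + g 2 • w) z = 0 := by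
        rw [hg]; exact QuadraticMap.polar_zero_left (quadOf Q hQ) z
      rw [zp_add_left hQ, zp_add_left hQ, zp_smul_left hQ, zp_smul_left hQ, zp_smul_left hQ] at h1
      exact h1
    have k1 := key f
    have k2 := key f₂
    have k3 := key f₃
    rw [h₁.pef, vf, wf] at k1
    rw [pf₂.1, h₂.pef, wf₂] at k2
    rw [pf₃.1, pf₃'.1, h₃.pef] at k3
    intro i
    fin_cases i
    · simpa using k1
    · simpa using k2
    · simpa using k3
  refine ⟨v, w, ⟨hu, h₂.qe, pv.1, ?_⟩, ⟨hu, h₃.qe, pw.1, ?_⟩, ⟨h₂.qe, h₃.qe, pw'.1, ?_⟩, hli⟩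
  · exact li_pair hQ h₁.pef vf pf₂.1 h₂.pef
  · exact li_pair hQ h₁.pef wf pf₃.1 h₃.pef
  · exact li_pair hQ h₂.pef wf₂ pf₃'.1 h₃.pef

end Cfsg.Agent.Lib.Helper12.OE
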